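import Mathlib

/-!
# The numerical part (helper349)
-/

set_option autoImplicit false

namespace Cfsg.Agent.H349.RegArith

theorem six {s : ℕ} (hs : s ∣ 6) : s = 1 ∨ s = 2 ∨ s = 3 ∨ s = 6 := by
  have h1 : s ≤ 6 := Nat.le_of_dvd (by norm_num) hs
  interval_cases s <;> revert hs <;> decide

theorem three_pow_bound (m : ℕ) (hm : 5 ≤ m) : 24 * m < 3 ^ m := by
  induction m, hm using Nat.le_induction with
  | base => norm_num
  | succ n hn ih => rw [pow_succ]; omega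

theorem nine_pow_bound (m : ℕ) (hm : 2 ≤ m) : 24 * m < 9 ^ m := by
  induction m, hm using Nat.le_induction with
  | base => norm_num
  | succ n hn ih => rw [pow_succ]; omega

theorem first {q m k c s a : ℕ} (hq3 : 3 ≤ q) (hm : 1 ≤ m) (hc : c ∣ m) (hs : s ∣ 6)
    (ha : a ∣ q ^ m - 1) (ha0 : 0 < a) (hcard : q ^ (m * k) - 1 = c * (s * (4 * a))) :
    ∃ t, a * t = q ^ m - 1 ∧ (∑ i ∈ Finset.range k, (q ^ m) ^ i) * t = 4 * (c * s) ∧
      (∑ i ∈ Finset.range k, (q ^ m) ^ i) ∣ 24 * m := by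
  obtain ⟨t, ht⟩ := ha
  have hQ : 1 ≤ q ^ m := Nat.one_le_pow _ _ (by omega)
  have h1 : (∑ i ∈ Finset.range k, (q ^ m) ^ i) * (q ^ m - 1) = q ^ (m * k) - 1 := by
    have h2 := geom_sum_mul ((q ^ m : ℕ) : ℤ) k
    rw [pow_mul]
    have h3 : 1 ≤ (q ^ m) ^ k := Nat.one_le_pow _ _ hQ
    zify [hQ, h3]
    exact_mod_cast h2
  have h2 : (∑ i ∈ Finset.range k, (q ^ m) ^ i) * t = 4 * (c * s) := by
    apply Nat.eq_of_mul_eq_mul_right ha0
    calc (∑ i ∈ Finset.range k, (q ^ m) ^ i) * t * a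
        = (∑ i ∈ Finset.range k, (q ^ m) ^ i) * (q ^ m - 1) := by rw [ht]; ring
      _ = c * (s * (4 * a)) := by rw [h1, hcard]
      _ = 4 * (c * s) * a := by ring
  refine ⟨t, ht.symm, h2, ?_⟩
  have h3 : (∑ i ∈ Finset.range k, (q ^ m) ^ i) ∣ 4 * (c * s) := ⟨t, h2.symm⟩
  apply h3.trans
  obtain ⟨c', rfl⟩ := hc
  obtain ⟨s', hs'⟩ := hs
  refine ⟨c' * s', ?_⟩
  calc 24 * (c * c') = 4 * 6 * (c * c') := by norm_num
    _ = 4 * (c * s) * (c' * s') := by rw [hs']; ring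

theorem arith {q m k c s a : ℕ} (hq : q.Prime) (hq2 : q ≠ 2) (hm : 1 ≤ m) (hk : 2 ≤ k) (hc : c ∣ m) (hs : s ∣ 6)
    (ha : a ∣ q ^ m - 1) (ha2 : 2 ∣ a) (ha0 : 0 < a) (hcard : q ^ (m * k) - 1 = c * (s * (4 * a))) :
    k = 2 ∧ m = 1 ∧ ((q = 3 ∧ s = 1 ∧ a = 2) ∨ (q = 5 ∧ s = 3 ∧ a = 2) ∨ (q = 7 ∧ 2 ∣ s) ∨
      (q = 11 ∧ s = 3 ∧ a = 10) ∨ (q = 23 ∧ 2 ∣ s)) := by
  have hq3 : 3 ≤ q := by
    have := hq.two_le
    omega
  obtain ⟨t, hat, hSt, hSd⟩ := first hq3 hm hc hs ha ha0 hcard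
  have hSle := Nat.le_of_dvd (by omega) hSd
  have h3m : 3 ^ m ≤ q ^ m := Nat.pow_le_pow_left hq3 m
  have hk2 : k = 2 := by
    by_contra hk2
    obtain ⟨j, rfl⟩ : ∃ j, k = 3 + j := ⟨k - 3, by omega⟩
    have h1 : ∑ i ∈ Finset.range 3, (q ^ m) ^ i ≤ ∑ i ∈ Finset.range (3 + j), (q ^ m) ^ i :=
      Finset.sum_le_sum_of_subset (Finset.range_mono (by omega))
    have h2 : ∑ i ∈ Finset.range 3, (q ^ m) ^ i = 1 + q ^ m + (q ^ m) ^ 2 := by
      simp [Finset.sum_range_succ]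
    have hm1 : m = 1 := by
      by_contra hm1
      have h3 := nine_pow_bound m (by omega)
      have h4 : 9 ^ m ≤ (q ^ m) ^ 2 := by
        have h5 : (3 ^ m) ^ 2 ≤ (q ^ m) ^ 2 := Nat.pow_le_pow_left h3m 2
        rwa [← pow_mul, mul_comm m 2, pow_mul] at h5
      omega
    subst hm1
    rw [pow_one] at h1 h2 hSle hSd
    have hq4 : q < 5 := by
      by_contra hq5
      push Not at hq5
      have h3 : 5 ^ 2 ≤ q ^ 2 := Nat.pow_le_pow_left hq5 2
      omega
    have hq3' : q = 3 := by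
      interval_cases q
      · rfl
      · exact absurd hq (by norm_num)
    subst hq3'
    rcases Nat.eq_zero_or_pos j with rfl | hj
    · revert hSd
      decide
    · have h3 : ∑ i ∈ Finset.range 4, 3 ^ i ≤ ∑ i ∈ Finset.range (3 + j), 3 ^ i :=
        Finset.sum_le_sum_of_subset (Finset.range_mono (by omega))
      have h4 : ∑ i ∈ Finset.range 4, 3 ^ i = 40 := by decide
      omega
  subst hk2
  have hS : ∑ i ∈ Finset.range 2, (q ^ m) ^ i = q ^ m + 1 := by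
    simp [Finset.sum_range_succ, add_comm]
  rw [hS] at hSt hSd hSle
  have hm4 : m < 5 := by
    by_contra hm5
    have h3 := three_pow_bound m (by omega)
    omega
  have hm1 : m = 1 := by
    by_contra hm1
    have hq6 : q < 7 := by
      by_contra hq7
      push Not at hq7
      have h3 : 7 ^ 2 ≤ q ^ 2 := Nat.pow_le_pow_left hq7 2
      have h4 : q ^ 2 ≤ q ^ m := Nat.pow_le_pow_right (by omega) (by omega)
      have h5 : 24 * m ≤ 96 := by omega
      have h6 : m ≠ 2 := by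
        rintro rfl
        omega
      have h7 : q ^ 3 ≤ q ^ m := Nat.pow_le_pow_right (by omega) (by omega)
      have h8 : 7 ^ 3 ≤ q ^ 3 := Nat.pow_le_pow_left hq7 3
      omega
    interval_cases m
    · exact hm1 rfl
    all_goals interval_cases q <;> revert hSd <;> first | decide | (exfalso; revert hq; norm_num)
  subst hm1
  refine ⟨rfl, rfl, ?_⟩
  rw [pow_one] at hSt hSd hSle hat
  have hc1 : c = 1 := Nat.dvd_one.1 hc
  subst hc1
  rw [one_mul] at hSt
  have hq23 : q < 24 := by omega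
  obtain ⟨a', rfl⟩ := ha2
  have ht0 : 0 < t := by
    rcases Nat.eq_zero_or_pos t with rfl | ht
    · omega
    · exact ht
  have ht6 : t < 7 := by
    rcases six hs with rfl | rfl | rfl | rfl <;> by_contra h <;> push Not at h <;> nlinarith
  rcases six hs with rfl | rfl | rfl | rfl <;> interval_cases t <;> omega

end Cfsg.Agent.H349.RegArith
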