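import Cfsg.Agent.H349.RegField

/-!
# Regular linear groups: numerical consequences of an abelian normal subgroup (helper349)
-/

set_option autoImplicit false

namespace Cfsg.Agent.H349.RegNum

open Cfsg.Agent.H349.RegField

universe u

variable {q : ℕ} [hq : Fact q.Prime] {V : Type u} [AddCommGroup V] [Module (ZMod q) V] {G : Type*} [Group G]

/-- `G` is semilinear over a field of order `|V|` -/
def Semi (ρ : G →* (V ≃ₗ[ZMod q] V)) : Prop :=
  ∃ (F : Type) (_ : Field F) (_ : Fintype F) (e : V ≃+ F),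
    ∀ g : G, ∃ (a : F) (σ : F ≃+* F), ∀ v : V, e (ρ g v) = a * σ (e v)

variable {ρ : G →* (V ≃ₗ[ZMod q] V)}

theorem inv_apply (g : G) (v : V) : ρ g⁻¹ (ρ g v) = v := by
  have h5 : (ρ g⁻¹ * ρ g) v = v := by rw [← map_mul, inv_mul_cancel, map_one]; rfl
  exact h5

theorem mul_apply (g k : G) (v : V) : ρ (g * k) v = ρ g (ρ k v) := by
  rw [map_mul]; rfl

theorem one_apply (v : V) : ρ 1 v = v := by rw [map_one]; rfl

theorem card_eq [Nontrivial V] [Finite V] (h : Reg ρ) : Nat.card G + 1 = Nat.card V := by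
  classical
  obtain ⟨v, hv⟩ := exists_ne (0 : V)
  have hne : ∀ g, ρ g v ≠ 0 := fun g hg => hv ((ρ g).map_eq_zero_iff.1 hg)
  let e : G ≃ {w : V // w ≠ 0} := Equiv.ofBijective (fun g => ⟨ρ g v, hne g⟩) ⟨by
    intro g k hgk
    have h1 : ρ g v = ρ k v := congrArg Subtype.val hgk
    have h2 : ρ (k⁻¹ * g) v = v := by rw [mul_apply, h1, inv_apply]
    exact (inv_mul_eq_one.1 (h.reg v hv _ h2)).symm, by
    rintro ⟨w, hw⟩
    obtain ⟨g, hg⟩ := h.trans v w hv hw
    exact ⟨g, Subtype.ext hg⟩⟩
  have := Fintype.ofFinite V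
  rw [Nat.card_congr e, Nat.card_eq_fintype_card, Nat.card_eq_fintype_card]
  have h1 : Fintype.card {w : V // ¬ w = 0} = Fintype.card V - Fintype.card {w : V // w = 0} :=
    Fintype.card_subtype_compl _
  have h2 : Fintype.card {w : V // w = 0} = 1 := Fintype.card_subtype_eq 0
  have h3 : 0 < Fintype.card V := Fintype.card_pos
  change Fintype.card {w : V // ¬ w = 0} + 1 = _
  omega

/-- sums over cyclic groups of prime order vanish -/
theorem sum_pow (h : Reg ρ) {p : ℕ} {x : G} (hx : x ≠ 1) (hxp : x ^ p = 1) (w : V) :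
    ∑ i ∈ Finset.range p, ρ (x ^ i) w = 0 := by
  by_contra hne
  apply hx
  apply h.reg _ hne
  rw [map_sum]
  have h1 : ∀ i ∈ Finset.range p, ρ x (ρ (x ^ i) w) = ρ (x ^ (i + 1)) w := by
    intro i _
    rw [← mul_apply, pow_succ']
  rw [Finset.sum_congr rfl h1]
  have h2 := Finset.sum_range_succ (fun i => ρ (x ^ i) w) p
  rw [Finset.sum_range_succ' (fun i => ρ (x ^ i) w) p, hxp, pow_zero] at h2
  exact add_right_cancel h2

/-- **uniqueness of subgroups of prime order in abelian subgroups** -/
theorem mem_zpowers [Nontrivial V] [Finite V] (h : Reg ρ) {p : ℕ} (hp : p.Prime) {u v : G} (huv : u * v = v * u)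
    (hu : u ^ p = 1) (hv : v ^ p = 1) (hv1 : v ≠ 1) : u ∈ Subgroup.zpowers v := by
  by_contra hcon
  obtain ⟨w, hw⟩ := exists_ne (0 : V)
  have hcom : Commute u v := huv
  have hne : ∀ j, u * v ^ j ≠ 1 := by
    intro j hj
    apply hcon
    have : u = (v ^ j)⁻¹ := eq_inv_of_mul_eq_one_left hj
    rw [this]
    exact inv_mem (Subgroup.pow_mem _ (Subgroup.mem_zpowers v) j)
  have h1 : ∑ j ∈ Finset.range p, ∑ i ∈ Finset.range p, ρ ((u * v ^ j) ^ i) w = 0 := by
    apply Finset.sum_eq_zero
    intro j _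
    apply sum_pow h (hne j) _
    rw [(hcom.pow_right j).mul_pow, hu, one_mul, ← pow_mul, mul_comm, pow_mul, hv, one_pow]
  rw [Finset.sum_comm] at h1
  have h2 : ∀ i ∈ Finset.range p, i ≠ 0 → ∑ j ∈ Finset.range p, ρ ((u * v ^ j) ^ i) w = 0 := by
    intro i hi hi0
    have hi' : i < p := Finset.mem_range.1 hi
    have h3 : v ^ i ≠ 1 := by
      intro h4
      have h5 := orderOf_dvd_of_pow_eq_one h4
      have : Fact p.Prime := ⟨hp⟩
      rw [orderOf_eq_prime hv hv1] at h5
      exact absurd (Nat.le_of_dvd (by omega) h5) (by omega)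
    have h4 : ∀ j ∈ Finset.range p, ρ ((u * v ^ j) ^ i) w = ρ (u ^ i) (ρ ((v ^ i) ^ j) w) := by
      intro j _
      rw [(hcom.pow_right j).mul_pow, ← mul_apply, ← pow_mul, ← pow_mul, mul_comm j i]
    rw [Finset.sum_congr rfl h4, ← map_sum, sum_pow h h3 _ w, map_zero]
    rw [← pow_mul, mul_comm, pow_mul, hv, one_pow]
  rw [Finset.sum_eq_single_of_mem 0 (Finset.mem_range.2 hp.pos) (fun i hi hi0 => h2 i hi hi0)] at h1
  simp only [pow_zero, map_one] at h1
  rw [Finset.sum_const, Finset.card_range] at h1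
  have h3 : p • w = 0 := h1
  -- `p ≠ q`
  have hfin : Finite G := by
    apply Finite.of_injective (fun g : G => ρ g w)
    intro g k hgk
    have h4 : ρ (k⁻¹ * g) w = w := by rw [mul_apply, show ρ g w = ρ k w from hgk, inv_apply]
    exact (inv_mul_eq_one.1 (h.reg w hw _ h4)).symm
  have h4 : (p : ZMod q) ≠ 0 := by
    intro h5
    rw [ZMod.natCast_eq_zero_iff] at h5
    have h6 : q = p := (Nat.prime_dvd_prime_iff_eq hq.out hp).1 h5
    have : Fact p.Prime := ⟨hp⟩
    have h7 : p ∣ Nat.card G := by
      rw [← orderOf_eq_prime hv hv1]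
      exact orderOf_dvd_natCard v
    have h8 : p ∣ Nat.card V := by
      rw [Module.natCard_eq_pow_finrank (K := ZMod q) (V := V), Nat.card_zmod]
      have h9 : 0 < Module.finrank (ZMod q) V := Module.finrank_pos
      have h10 : p ∣ q := by rw [h6]
      exact h10.trans (dvd_pow_self q h9.ne')
    rw [← card_eq h] at h8
    have h9 := (Nat.dvd_add_right h7).1 h8
    exact hp.one_lt.ne' (Nat.dvd_one.1 h9)
  have h5 : (p : ZMod q) • w = 0 := by rw [Nat.cast_smul_eq_nsmul, h3]
  exact hw ((smul_eq_zero.1 h5).resolve_left h4)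

/-- **Abelian normal subgroups.** -/
theorem abel [Nontrivial V] [Finite V] [Finite G] (h : Reg ρ) (A : Subgroup G) [A.Normal]
    (hab : ∀ a ∈ A, ∀ b ∈ A, a * b = b * a) :
    ∃ m k : ℕ, 1 ≤ m ∧ 1 ≤ k ∧ Nat.card V = q ^ (m * k) ∧ IsCyclic A ∧ Nat.card A ∣ q ^ m - 1 ∧
      (Subgroup.centralizer (A : Set G)).index ∣ m ∧
      (k = 1 → Semi ρ ∧ IsCyclic (Subgroup.centralizer (A : Set G)) ∧
        IsCyclic (G ⧸ Subgroup.centralizer (A : Set G))) := by
  classical
  obtain ⟨E, _, _, _, _, σ, ι, hι, hact, hsemi, hcen⟩ := exists_field h hab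
  have hfE : FiniteDimensional (ZMod q) E := inferInstance
  have hVE : Module.Finite E V := Module.Finite.of_finite
  have hE : Nat.card E = q ^ Module.finrank (ZMod q) E := by
    rw [Module.natCard_eq_pow_finrank (K := ZMod q) (V := E), Nat.card_zmod]
  have hV : Nat.card V = q ^ (Module.finrank (ZMod q) E * Module.finrank E V) := by
    rw [Module.natCard_eq_pow_finrank (K := E) (V := V), hE, ← pow_mul]
  have hcyc : IsCyclic A := isCyclic_of_injective ι hι
  have hker : ∀ g, σ g = 1 ↔ g ∈ Subgroup.centralizer (A : Set G) := by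
    intro g
    constructor
    · intro hg
      rw [Subgroup.mem_centralizer_iff]
      intro a ha
      obtain ⟨v, hv⟩ := exists_ne (0 : V)
      have h1 : ρ (a * g) v = ρ (g * a) v := by
        rw [mul_apply, mul_apply, ← hact ⟨a, ha⟩, ← hact ⟨a, ha⟩, hsemi, hg]
        rfl
      have h2 : ρ ((g * a)⁻¹ * (a * g)) v = v := by rw [mul_apply, h1, inv_apply]
      exact (inv_mul_eq_one.1 (h.reg v hv _ h2)).symm
    · intro hg
      exact hcen g fun a ha => (Subgroup.mem_centralizer_iff.1 hg a ha).symm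
  have hker' : σ.ker = Subgroup.centralizer (A : Set G) := by
    ext g
    rw [MonoidHom.mem_ker, hker]
  refine ⟨Module.finrank (ZMod q) E, Module.finrank E V, Module.finrank_pos, Module.finrank_pos, hV, hcyc, ?_, ?_, ?_⟩
  · rw [← hE, ← Nat.card_units]
    exact Subgroup.card_dvd_of_injective ι hι
  · rw [← hker', Subgroup.index_ker, ← IsGalois.card_aut_eq_finrank (ZMod q) E]
    exact Subgroup.card_subgroup_dvd_card _
  · intro hk
    obtain ⟨v, hv⟩ := exists_ne (0 : V)
    have hspan := (finrank_eq_one_iff_of_nonzero' v hv).1 hk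
    have hinj : ∀ r s : E, r • v = s • v → r = s := by
      intro r s hrs
      have h1 : (r - s) • v = 0 := by rw [sub_smul, hrs, sub_self]
      exact sub_eq_zero.1 ((smul_eq_zero.1 h1).resolve_right hv)
    choose f hf using hspan
    -- `f w • v = w`
    have hfr : ∀ r : E, f (r • v) = r := fun r => hinj _ _ (hf _)
    refine ⟨?_, ?_, ?_⟩
    · -- semilinear
      have hm : Module.finrank (ZMod q) E ≠ 0 := Module.finrank_pos.ne'
      let F := GaloisField q (Module.finrank (ZMod q) E)
      have hfF : Finite F := Nat.finite_of_card_ne_zero (by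
        rw [GaloisField.card q _ hm]
        exact pow_ne_zero _ hq.out.ne_zero)
      letI : Fintype F := Fintype.ofFinite F
      letI : Fintype E := Fintype.ofFinite E
      have hcEF : Fintype.card E = Fintype.card F := by
        rw [← Nat.card_eq_fintype_card, ← Nat.card_eq_fintype_card, GaloisField.card q _ hm, hE]
      let θ : E ≃+* F := FiniteField.ringEquivOfCardEq hcEF
      let e0 : V ≃+ E :=
        { toFun := f
          invFun := fun r => r • v
          left_inv := hf
          right_inv := hfr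
          map_add' := fun x y => hinj _ _ (by rw [hf, add_smul, hf, hf]) }
      refine ⟨F, inferInstance, inferInstance, e0.trans θ.toAddEquiv, fun g => ?_⟩
      refine ⟨θ (f (ρ g v)), (θ.symm.trans (σ g).toRingEquiv).trans θ, fun w => ?_⟩
      show θ (f (ρ g w)) = θ (f (ρ g v)) * θ (σ g (θ.symm (θ (f w))))
      rw [θ.symm_apply_apply, ← map_mul]
      congr 1
      apply hinj
      rw [hf, mul_comm, mul_smul, hf, ← hsemi, hf]
    · -- the centralizer is cyclic
      let φ : Subgroup.centralizer (A : Set G) →* E :=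
        { toFun := fun g => f (ρ g v)
          map_one' := hinj _ _ (by
            rw [hf, one_smul]
            exact one_apply v)
          map_mul' := fun g k => hinj _ _ (by
            rw [hf, Subgroup.coe_mul, mul_apply, mul_comm, mul_smul, hf]
            have h1 : ρ (k : G) v = f (ρ (k : G) v) • v := (hf _).symm
            rw [h1, hsemi, (hker _).2 g.2, hfr]
            rfl) }
      have hφ : Function.Injective φ := by
        intro g k hgk
        have h1 : ρ (g : G) v = ρ (k : G) v := by
          rw [← hf (ρ (g : G) v), ← hf (ρ (k : G) v)]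
          exact congrArg (fun r : E => r • v) hgk
        have h2 : ρ ((k : G)⁻¹ * g) v = v := by rw [mul_apply, h1, inv_apply]
        exact Subtype.ext (inv_mul_eq_one.1 (h.reg v hv _ h2)).symm
      exact isCyclic_of_injective_ringHom φ hφ
    · have h1 : IsCyclic (G ⧸ σ.ker) := by
        have e := QuotientGroup.quotientKerEquivRange σ
        exact isCyclic_of_injective e.toMonoidHom e.injective
      have h2 := QuotientGroup.quotientMulEquivOfEq hker'
      exact isCyclic_of_surjective h2.toMonoidHom h2.surjective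

end Cfsg.Agent.H349.RegNum
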