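import Cfsg.Agent.H349.RegQuot
import Cfsg.Agent.SylowG2Aux.SL23Card
import Cfsg.Agent.Lib.DihedralRecog

/-!
# `SL(2, 3)` times a cyclic group (helper349)
-/

set_option autoImplicit false

namespace Cfsg.Agent.H349.RegSL

open Cfsg.Agent.H349.RegGrp Cfsg.Agent.H349.RegStr Cfsg.Agent.H349.RegQuot

variable {G : Type*} [Group G] {A B : Subgroup G} {z b c : G}

theorem sl_prod [Finite G] (h : GT G) (hA : MaxAb A) (hS : Str A B z b c) {r : ℕ} (hr : Nat.Coprime r 24)
    (hcA : Nat.card A = 2 * r) (hcG : Nat.card G = 24 * r) (hC : Subgroup.centralizer (A : Set G) = ⊤) :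
    ∃ K : Subgroup G, Nat.card K = r ∧
      Nonempty (G ≃* Matrix.SpecialLinearGroup (Fin 2) (ZMod 3) × K) := by
  classical
  have hAn := hA.normal
  have hBn := hS.Bn
  have hr0 : 0 < r := by
    rcases Nat.eq_zero_or_pos r with h0 | h0
    · have := Nat.card_pos (α := A)
      omega
    · exact h0
  have hcen : ∀ a ∈ A, ∀ x : G, a * x = x * a := fun a ha x =>
    Subgroup.mem_centralizer_iff.1 (by rw [hC]; exact Subgroup.mem_top x) a ha
  obtain ⟨⟨g, hg⟩, hgen⟩ := (h.cyc A hA.normal hA.ab).exists_generator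
  have hog : orderOf g = 2 * r := by
    have h1 := orderOf_eq_card_of_forall_mem_zpowers hgen
    rw [Subgroup.orderOf_mk, hcA] at h1
    exact h1
  set K := Subgroup.zpowers (g ^ 2) with hK
  have hKA : K ≤ A := by
    rw [hK, Subgroup.zpowers_le]
    exact A.pow_mem hg 2
  have hKr : Nat.card K = r := by
    rw [hK, Nat.card_zpowers, orderOf_pow_of_dvd (by norm_num) ⟨r, hog⟩, hog]
    exact Nat.mul_div_cancel_left r (by norm_num)
  have hKn : K.Normal := ⟨fun k hk x => by rw [← hcen k (hKA hk) x, mul_assoc, mul_inv_cancel, mul_one]; exact hk⟩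
  have hKi : K.index = 24 := by
    have h1 := K.card_mul_index
    rw [hKr, hcG, mul_comm 24] at h1
    exact Nat.eq_of_mul_eq_mul_left hr0 h1
  obtain ⟨X, hX⟩ := Subgroup.exists_right_complement'_of_coprime (N := K) (by rw [hKr, hKi]; exact hr)
  have hXc : Nat.card X = 24 := by
    have h1 := hX.card_mul_card
    rw [hKr, hcG, mul_comm 24] at h1
    exact Nat.eq_of_mul_eq_mul_left hr0 h1
  have hdis : Disjoint K X := hX.disjoint
  -- the product decomposition
  have hcomm : ∀ (m : X) (n : K), Commute (X.subtype m) (K.subtype n) := fun m n => (hcen n.1 (hKA n.2) m.1).symm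
  have hbij : Function.Bijective (X.subtype.noncommCoprod K.subtype hcomm) := by
    constructor
    · rw [injective_iff_map_eq_one]
      rintro ⟨x, k⟩ hxk
      rw [MonoidHom.noncommCoprod_apply] at hxk
      have h1 : (x : G) * (k : G) = 1 := hxk
      have h2 : (x : G) = (k : G)⁻¹ := eq_inv_of_mul_eq_one_left h1
      have h3 : (x : G) ∈ K ⊓ X := ⟨by rw [h2]; exact K.inv_mem k.2, x.2⟩
      rw [hdis.eq_bot, Subgroup.mem_bot] at h3
      have h4 : (k : G) = 1 := by rw [h3, one_mul] at h1; exact h1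
      exact Prod.ext (Subtype.ext h3) (Subtype.ext h4)
    · intro x
      obtain ⟨⟨k, y⟩, hky⟩ := hX.surjective x
      refine ⟨⟨⟨y.1, y.2⟩, ⟨k.1, k.2⟩⟩, ?_⟩
      rw [MonoidHom.noncommCoprod_apply]
      change (y : G) * (k : G) = x
      rw [← hcen k.1 (hKA k.2)]
      exact hky
  have e : X × K ≃* G := MulEquiv.ofBijective _ hbij
  -- elements of order dividing 4 are in `X`
  have hmem4 : ∀ x : G, x ^ 4 = 1 → x ∈ X := by
    intro x hx
    obtain ⟨⟨k, y⟩, hky⟩ := hX.surjective x
    have hky' : (k : G) * (y : G) = x := hky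
    have h1 : Commute (k : G) (y : G) := hcen k.1 (hKA k.2) y.1
    have h2 : (k : G) ^ 4 * (y : G) ^ 4 = 1 := by rw [← h1.mul_pow, hky', hx]
    have h3 : (k : G) ^ 4 ∈ K ⊓ X := by
      refine ⟨K.pow_mem k.2 4, ?_⟩
      rw [eq_inv_of_mul_eq_one_left h2]
      exact X.inv_mem (X.pow_mem y.2 4)
    rw [hdis.eq_bot, Subgroup.mem_bot] at h3
    have h4 : (k : G) ^ r = 1 := by
      have h5 : k ^ r = 1 := by rw [← hKr]; exact pow_card_eq_one'
      exact congrArg Subtype.val h5
    have h5 := Nat.dvd_gcd (orderOf_dvd_of_pow_eq_one h3) (orderOf_dvd_of_pow_eq_one h4)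
    have h6 : Nat.gcd 4 r = 1 := by
      have h7 : Nat.Coprime r 4 := Nat.Coprime.coprime_dvd_right (by norm_num) hr
      exact h7.symm
    rw [h6] at h5
    have h7 := orderOf_eq_one_iff.1 (Nat.dvd_one.1 h5)
    rw [← hky', h7, one_mul]
    exact y.2
  have hb4 : b ^ 4 = 1 := by
    calc b ^ 4 = (b * b) * (b * b) := by simp only [pow_succ, pow_zero, one_mul, mul_assoc]
      _ = 1 := by rw [hS.bb, hS.zz]
  have hc4 : c ^ 4 = 1 := by
    calc c ^ 4 = (c * c) * (c * c) := by simp only [pow_succ, pow_zero, one_mul, mul_assoc]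
      _ = 1 := by rw [hS.cc, hS.zz]
  have hbX := hmem4 b hb4
  have hcX := hmem4 c hc4
  have hbz : b⁻¹ = b * z := by
    rw [inv_eq_iff_mul_eq_one]
    calc b * (b * z) = (b * b) * z := by group
      _ = 1 := by rw [hS.bb, hS.zz]
  -- the quaternion subgroup
  have hBc : Nat.card B = 8 * r := by rw [card_B hS, hcA]; ring
  have hBi : B.index = 3 := by
    have h1 := B.card_mul_index
    rw [hBc, hcG] at h1
    have h2 : 8 * r * B.index = 8 * r * 3 := by rw [h1]; ring
    exact Nat.eq_of_mul_eq_mul_left (by omega) h2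
  have hQc : Nat.card (B.subgroupOf X) = 8 := by
    have h1 := (B.subgroupOf X).card_mul_index
    have h2 : (B.subgroupOf X).index = B.relIndex X := rfl
    have h3 : X ⊔ B = ⊤ := by
      rw [eq_top_iff, ← hX.sup_eq_top]
      exact sup_le ((hKA.trans hS.AB).trans le_sup_right) le_sup_left
    rw [h2, ← Subgroup.relIndex_sup_right X B, h3, Subgroup.relIndex_top_right, hBi, hXc] at h1
    omega
  have hQn : (B.subgroupOf X).Normal := inferInstance
  let b' : B.subgroupOf X := ⟨⟨b, hbX⟩, hS.bB⟩
  let c' : B.subgroupOf X := ⟨⟨c, hcX⟩, hS.cB⟩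
  have hext : ∀ x y : B.subgroupOf X, ((x : X) : G) = ((y : X) : G) → x = y := fun x y hxy =>
    Subtype.ext (Subtype.ext hxy)
  have hob : orderOf b' = 2 * 2 := by
    have : Fact (Nat.Prime 2) := ⟨Nat.prime_two⟩
    have h1 : orderOf b' = 2 ^ (1 + 1) := by
      apply orderOf_eq_prime_pow
      · intro h1
        have h2 : b ^ 2 ^ 1 = 1 := congrArg (fun x : B.subgroupOf X => ((x : X) : G)) h1
        rw [pow_one, pow_two, hS.bb] at h2
        exact hS.z1 h2
      · apply hext
        exact hb4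
    rw [h1]
    norm_num
  have hquat : Nonempty (B.subgroupOf X ≃* QuaternionGroup 2) := by
    apply Cfsg.Agent.Lib.DihedralRecog.quaternion_of_generators (by norm_num) b' c' hob
    · apply hext
      change c * c = b ^ 2
      rw [hS.cc, pow_two, hS.bb]
    · apply hext
      change c * b * c⁻¹ = b⁻¹
      rw [hS.cb, hbz]
      calc b * c * z * c⁻¹ = b * (c * z) * c⁻¹ := by group
        _ = b * (z * c) * c⁻¹ := by rw [comm_of hS hS.cB hS.zA]
        _ = b * z := by group
    · intro h1
      obtain ⟨n, hn⟩ := Subgroup.mem_zpowers_iff.1 h1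
      have h2 : b ^ n = c := congrArg (fun x : B.subgroupOf X => ((x : X) : G)) hn
      apply cb_ne hS
      rw [← h2]
      exact ((Commute.refl b).zpow_left n).eq
    · rw [hQc]
  -- an element of order three
  have : Fact (Nat.Prime 3) := ⟨Nat.prime_three⟩
  obtain ⟨t, ht⟩ := exists_prime_orderOf_dvd_card' (G := X) 3 (by rw [hXc]; norm_num)
  have htc : t ∉ Subgroup.centralizer (B.subgroupOf X : Set X) := by
    intro h1
    rw [Subgroup.mem_centralizer_iff] at h1
    have h2 : b * t = t * b := congrArg Subtype.val (h1 ⟨b, hbX⟩ hS.bB)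
    have h3 : c * t = t * c := congrArg Subtype.val (h1 ⟨c, hcX⟩ hS.cB)
    have h4 : (t : G) ∈ A := by
      apply hS.cen
      intro y hy
      rcases hS.gen y hy with h5 | ⟨a, ha, rfl | rfl | rfl⟩
      · exact (hcen y h5 _).symm
      · calc (t : G) * (b * a) = (t * b) * a := by group
          _ = b * (t * a) := by rw [← h2]; group
          _ = b * a * t := by rw [← hcen a ha]; group
      · calc (t : G) * (c * a) = (t * c) * a := by group
          _ = c * (t * a) := by rw [← h3]; group
          _ = c * a * t := by rw [← hcen a ha]; group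
      · calc (t : G) * (b * c * a) = (t * b) * c * a := by group
          _ = b * (t * c) * a := by rw [← h2]; group
          _ = b * c * (t * a) := by rw [← h3]; group
          _ = b * c * a * t := by rw [← hcen a ha]; group
    have h5 : orderOf (⟨(t : G), h4⟩ : A) ∣ Nat.card A := orderOf_dvd_natCard _
    rw [Subgroup.orderOf_mk, Subgroup.orderOf_coe, ht, hcA] at h5
    have h6 : Nat.Coprime 3 (2 * r) := by
      apply Nat.Coprime.mul_right (by norm_num)
      have h7 : Nat.Coprime r 3 := Nat.Coprime.coprime_dvd_right (by norm_num) hr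
      exact h7.symm
    have h7 := Nat.dvd_gcd (dvd_refl 3) h5
    rw [h6] at h7
    omega
  obtain ⟨f⟩ := Cfsg.Agent.SylowG2Aux.SL23Card.nonempty_mulEquiv hXc (B.subgroupOf X) hquat t
    (by rw [ht]; decide) htc
  exact ⟨K, hKr, ⟨e.symm.trans (f.prodCongr (MulEquiv.refl K))⟩⟩

end Cfsg.Agent.H349.RegSL
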